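import Cfsg.Agent.Lib.Star.GroupK
import Cfsg.Agent.Lib.PermMod.Basic

/-!
# Matrices invariant under a `p`-group acting on both sides of `G`

`S` is a `p`-subgroup of the finite group `G`, `k` a field of characteristic `p`.  The algebra
`biInv k S` consists of the `G × G` matrices invariant under `g ↦ s g t`, `s t ∈ S`.  For a twisted
diagonal subgroup `{(q, x q⁻¹ x⁻¹)}` of `S × S`, truncation to its fixed points is multiplicative
(`mul_apply_tw`), and the projections on the double cosets of `S` are primitive in `biInv k S`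
(`dg_prim`).

The main theorem `fusion_of_min_rank`: if the right multiplication by a central idempotent `x` has
the smallest rank allowed by the `p`-subgroups `Q` with `x` nonzero on `C_G(Q)`, then conjugation
from such `Q` into `S` is induced by elements of `S`.
-/

set_option autoImplicit false
set_option linter.unusedSectionVars false
set_option linter.style.haveILetI false

namespace Cfsg.Agent.Lib.Star.BiPerm

open MonoidAlgebra Cfsg.Agent.Lib.BlockAlg

variable {G : Type*} [Group G] [Fintype G] [DecidableEq G] {k : Type*} [Field k]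

theorem mul_mul_cancel_iff (s g h t : G) : s * g * t = s * h * t ↔ g = h := by
  constructor
  · intro H
    exact mul_left_cancel (mul_right_cancel H)
  · rintro rfl
    rfl

/-- Matrices invariant under `(s, t) : g ↦ s g t`. -/
def biInv (k : Type*) [Field k] (S : Subgroup G) : Subalgebra k (Matrix G G k) where
  carrier := {m | ∀ s ∈ S, ∀ t ∈ S, ∀ g h, m (s * g * t) (s * h * t) = m g h}
  mul_mem' {a b} ha hb s hs t ht g h := by
    simp only [Matrix.mul_apply]
    let ε : G ≃ G := (Equiv.mulLeft s).trans (Equiv.mulRight t)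
    rw [← Equiv.sum_comp ε]
    refine Finset.sum_congr rfl fun c _ => ?_
    change a (s * g * t) (s * c * t) * b (s * c * t) (s * h * t) = _
    rw [ha s hs t ht, hb s hs t ht]
  one_mem' s _ t _ g h := by
    simp only [Matrix.one_apply, mul_mul_cancel_iff]
  add_mem' {a b} ha hb s hs t ht g h := by
    simp only [Matrix.add_apply, ha s hs t ht, hb s hs t ht]
  zero_mem' _ _ _ _ _ _ := rfl
  algebraMap_mem' c s _ t _ g h := by
    simp only [Matrix.algebraMap_matrix_apply, mul_mul_cancel_iff]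

variable {S Q : Subgroup G} {x : G}

theorem mem_biInv {m : Matrix G G k} :
    m ∈ biInv k S ↔ ∀ s ∈ S, ∀ t ∈ S, ∀ g h, m (s * g * t) (s * h * t) = m g h := Iff.rfl

/-! ### Twisted fixed points -/

theorem conj_mem_cen_iff {q c : G} (hq : q ∈ Q) : q * c * q⁻¹ ∈ cen Q ↔ c ∈ cen Q := by
  constructor
  · intro h
    have h1 : q * (q * c * q⁻¹) = (q * c * q⁻¹) * q :=
      (Subgroup.mem_centralizer_iff.mp h) q hq
    have h2 : q * c * q⁻¹ = c := by
      have h3 : q * (q * c * q⁻¹) = q * c := by rw [h1]; group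
      exact mul_left_cancel h3
    rwa [h2] at h
  · intro h
    have h1 : q * c = c * q := (Subgroup.mem_centralizer_iff.mp h) q hq
    rw [h1, mul_inv_cancel_right]
    exact h

section Char

open scoped Classical

variable {p : ℕ} [hp : Fact p.Prime] [CharP k p]

theorem sum_tw (hQ : IsPGroup p Q) (x : G) (f : G → k)
    (hf : ∀ q ∈ Q, ∀ c, f (q * c * (x * q⁻¹ * x⁻¹)) = f c) :
    ∑ c, (if c * x ∈ cen Q then 0 else f c) = 0 := by
  letI act : MulAction Q G :=
    { smul := fun q c => (q : G) * c * (x * (q : G)⁻¹ * x⁻¹)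
      one_smul := fun c => by
        change (((1 : Q) : G)) * c * (x * ((1 : Q) : G)⁻¹ * x⁻¹) = c
        simp
      mul_smul := fun q₁ q₂ c => by
        change ((q₁ * q₂ : Q) : G) * c * (x * ((q₁ * q₂ : Q) : G)⁻¹ * x⁻¹) =
          (q₁ : G) * ((q₂ : G) * c * (x * (q₂ : G)⁻¹ * x⁻¹)) * (x * (q₁ : G)⁻¹ * x⁻¹)
        push_cast
        group }
  have hsm : ∀ (q : Q) (c : G), q • c = (q : G) * c * (x * (q : G)⁻¹ * x⁻¹) := fun _ _ => rfl
  refine sum_eq_zero_of_fixed hQ _ ?_ ?_
  · intro q c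
    rw [hsm]
    have h1 : (q : G) * c * (x * (q : G)⁻¹ * x⁻¹) * x = (q : G) * (c * x) * (q : G)⁻¹ := by group
    simp only [h1, conj_mem_cen_iff q.2, hf q q.2]
  · intro c hc
    have h1 : c * x ∈ cen Q := by
      rw [Subgroup.mem_centralizer_iff]
      intro q hq
      have h2 : (q : G) * c * (x * (q : G)⁻¹ * x⁻¹) = c := hc ⟨q, hq⟩
      have h3 : q * (c * x) * q⁻¹ = c * x := by
        calc q * (c * x) * q⁻¹ = (q * c * (x * q⁻¹ * x⁻¹)) * x := by group
          _ = _ := by rw [h2]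
      exact mul_inv_eq_iff_eq_mul.mp h3
    rw [if_pos h1]

/-- Truncation to the twisted fixed points is multiplicative. -/
theorem mul_apply_tw (hS : IsPGroup p S) (hQS : Q ≤ S) (hx : ∀ q ∈ Q, x * q * x⁻¹ ∈ S)
    {m n : Matrix G G k} (hm : m ∈ biInv k S) (hn : n ∈ biInv k S) {g h : G}
    (hg : g * x ∈ cen Q) (hh : h * x ∈ cen Q) :
    (m * n) g h = ∑ c, if c * x ∈ cen Q then m g c * n c h else 0 := by
  have hQ : IsPGroup p Q := hS.to_le hQS
  have h0 := sum_tw hQ x (fun c => m g c * n c h) (by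
    intro q hq c
    have hτ : x * q⁻¹ * x⁻¹ ∈ S := hx _ (Q.inv_mem hq)
    have h1 : ∀ y : G, y * x ∈ cen Q → q * y * (x * q⁻¹ * x⁻¹) = y := by
      intro y hy
      have h2 : q * (y * x) = y * x * q := (Subgroup.mem_centralizer_iff.mp hy) q hq
      calc q * y * (x * q⁻¹ * x⁻¹) = (q * (y * x)) * q⁻¹ * x⁻¹ := by group
        _ = y := by rw [h2]; group
    have h3 := hm q (hQS hq) _ hτ g c
    rw [h1 g hg] at h3
    have h4 := hn q (hQS hq) _ hτ c h
    rw [h1 h hh] at h4
    simp only [h3, h4])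
  rw [Matrix.mul_apply]
  have h5 : ∑ c, m g c * n c h = (∑ c, if c * x ∈ cen Q then m g c * n c h else 0) +
      ∑ c, if c * x ∈ cen Q then 0 else m g c * n c h := by
    rw [← Finset.sum_add_distrib]
    refine Finset.sum_congr rfl fun c _ => ?_
    split_ifs <;> simp
  rw [h5, h0, add_zero]

/-- Vanishing on the twisted fixed points. -/
def Van (Q : Subgroup G) (x : G) (m : Matrix G G k) : Prop :=
  ∀ g h, g * x ∈ cen Q → h * x ∈ cen Q → m g h = 0

theorem Van.mul_left (hS : IsPGroup p S) (hQS : Q ≤ S) (hx : ∀ q ∈ Q, x * q * x⁻¹ ∈ S)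
    {m n : Matrix G G k} (hm : m ∈ biInv k S) (hn : n ∈ biInv k S) (h : Van Q x n) :
    Van Q x (m * n) := by
  intro g g' hg hg'
  rw [mul_apply_tw hS hQS hx hm hn hg hg']
  refine Finset.sum_eq_zero fun c _ => ?_
  split_ifs with hc
  · rw [h c g' hc hg', mul_zero]
  · rfl

theorem Van.mul_right (hS : IsPGroup p S) (hQS : Q ≤ S) (hx : ∀ q ∈ Q, x * q * x⁻¹ ∈ S)
    {m n : Matrix G G k} (hm : m ∈ biInv k S) (hn : n ∈ biInv k S) (h : Van Q x m) :
    Van Q x (m * n) := by
  intro g g' hg hg'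
  rw [mul_apply_tw hS hQS hx hm hn hg hg']
  refine Finset.sum_eq_zero fun c _ => ?_
  split_ifs with hc
  · rw [h g c hg hc, zero_mul]
  · rfl

end Char

/-! ### Orbits -/

open scoped Classical in
/-- The double coset `S g₀ S`. -/
noncomputable def orb (S : Subgroup G) (g₀ : G) : Finset G :=
  Finset.univ.filter fun g => ∃ s ∈ S, ∃ t ∈ S, g = s * g₀ * t

theorem mem_orb {g g₀ : G} : g ∈ orb S g₀ ↔ ∃ s ∈ S, ∃ t ∈ S, g = s * g₀ * t := by
  simp [orb]

theorem self_mem_orb (g₀ : G) : g₀ ∈ orb S g₀ :=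
  mem_orb.mpr ⟨1, S.one_mem, 1, S.one_mem, by simp⟩

theorem mul_mem_orb {s t g g₀ : G} (hs : s ∈ S) (ht : t ∈ S) (h : g ∈ orb S g₀) :
    s * g * t ∈ orb S g₀ := by
  obtain ⟨s', hs', t', ht', rfl⟩ := mem_orb.mp h
  exact mem_orb.mpr ⟨s * s', S.mul_mem hs hs', t' * t, S.mul_mem ht' ht, by group⟩

theorem mul_mem_orb_iff {s t g g₀ : G} (hs : s ∈ S) (ht : t ∈ S) :
    s * g * t ∈ orb S g₀ ↔ g ∈ orb S g₀ := by
  refine ⟨fun h => ?_, mul_mem_orb hs ht⟩
  have := mul_mem_orb (S.inv_mem hs) (S.inv_mem ht) h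
  simpa [mul_assoc] using this

theorem orb_eq_of_mem {g g₀ : G} (h : g ∈ orb S g₀) : orb S g = orb S g₀ := by
  obtain ⟨s, hs, t, ht, rfl⟩ := mem_orb.mp h
  ext a
  constructor
  · intro ha
    obtain ⟨s', hs', t', ht', rfl⟩ := mem_orb.mp ha
    exact mem_orb.mpr ⟨s' * s, S.mul_mem hs' hs, t * t', S.mul_mem ht ht', by group⟩
  · intro ha
    obtain ⟨s', hs', t', ht', rfl⟩ := mem_orb.mp ha
    refine mem_orb.mpr ⟨s' * s⁻¹, S.mul_mem hs' (S.inv_mem hs), t⁻¹ * t', S.mul_mem (S.inv_mem ht) ht', ?_⟩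
    group

variable (k) in
/-- The projection on a subset. -/
noncomputable def dg (O : Finset G) : Matrix G G k :=
  Matrix.diagonal fun g => if g ∈ O then 1 else 0

theorem dg_mem (g₀ : G) : dg k (orb S g₀) ∈ biInv k S := by
  intro s hs t ht g h
  simp only [dg, Matrix.diagonal_apply, mul_mul_cancel_iff, mul_mem_orb_iff hs ht]

theorem dg_mul_self (O : Finset G) : dg k O * dg k O = dg k O := by
  simp only [dg, Matrix.diagonal_mul_diagonal]
  congr 1
  funext g
  split_ifs <;> simp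

theorem dg_ne_zero {O : Finset G} {g : G} (hg : g ∈ O) : dg k O ≠ 0 := by
  intro h
  have := congrFun (congrFun h g) g
  simp [dg, hg] at this

theorem sum_dg : ∑ O ∈ Finset.univ.image (orb S), (dg k O : Matrix G G k) = 1 := by
  ext g h
  rw [Matrix.sum_apply, Matrix.one_apply]
  by_cases hgh : g = h
  · subst hgh
    rw [if_pos rfl, Finset.sum_eq_single (orb S g)]
    · simp [dg, self_mem_orb]
    · intro O hO hne
      obtain ⟨g', -, rfl⟩ := Finset.mem_image.mp hO
      simp only [dg, Matrix.diagonal_apply_eq]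
      rw [if_neg]
      intro hg
      exact hne (orb_eq_of_mem hg).symm
    · intro h1
      exact absurd (Finset.mem_image_of_mem _ (Finset.mem_univ g)) h1
  · rw [if_neg hgh]
    refine Finset.sum_eq_zero fun O _ => ?_
    simp [dg, hgh]

/-! ### The representation on functions -/

variable (k S) in
/-- `S × S` acts on the functions on `G`. -/
noncomputable def biRep : Representation k (S × S) (G → k) where
  toFun y :=
    { toFun := fun v g => v ((y.1 : G)⁻¹ * g * y.2)
      map_add' := fun _ _ => rfl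
      map_smul' := fun _ _ => rfl }
  map_one' := by
    refine LinearMap.ext fun v => funext fun g => ?_
    simp
  map_mul' y z := by
    refine LinearMap.ext fun v => funext fun g => ?_
    simp only [LinearMap.coe_mk, AddHom.coe_mk, Prod.fst_mul, Prod.snd_mul, Subgroup.coe_mul,
      Module.End.mul_apply]
    congr 1
    group

theorem biRep_apply (y : S × S) (v : G → k) (g : G) :
    biRep k S y v g = v ((y.1 : G)⁻¹ * g * y.2) := rfl

theorem biRep_mulVec {e : Matrix G G k} (he : e ∈ biInv k S) (y : S × S) (v : G → k) :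
    biRep k S y (e.mulVec v) = e.mulVec (biRep k S y v) := by
  funext g
  rw [biRep_apply]
  simp only [Matrix.mulVec, dotProduct]
  let ε : G ≃ G := (Equiv.mulLeft (y.1 : G)⁻¹).trans (Equiv.mulRight (y.2 : G))
  rw [← Equiv.sum_comp ε]
  refine Finset.sum_congr rfl fun c _ => ?_
  change e _ (((y.1 : G)⁻¹ * c) * y.2) * v (((y.1 : G)⁻¹ * c) * y.2) = e g c * biRep k S y v c
  rw [he _ (S.inv_mem y.1.2) _ y.2.2, biRep_apply]

/-- The characteristic function of a double coset. -/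
noncomputable def ind (k : Type*) [Field k] (O : Finset G) : G → k := fun g => if g ∈ O then 1 else 0

theorem biRep_ind (g₀ : G) (y : S × S) : biRep k S y (ind k (orb S g₀)) = ind k (orb S g₀) := by
  funext g
  rw [biRep_apply]
  simp only [ind, mul_mem_orb_iff (S.inv_mem y.1.2) y.2.2]

theorem eq_smul_ind_of_fixed {u : G → k} {g₀ : G} (hfix : ∀ y : S × S, biRep k S y u = u)
    (hsupp : ∀ g, g ∉ orb S g₀ → u g = 0) : u = u g₀ • ind k (orb S g₀) := by
  funext g
  simp only [Pi.smul_apply, ind, smul_eq_mul]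
  split_ifs with hg
  · obtain ⟨s, hs, t, ht, rfl⟩ := mem_orb.mp hg
    have := congrFun (hfix (⟨s⁻¹, S.inv_mem hs⟩, ⟨t, ht⟩)) g₀
    rw [biRep_apply] at this
    simp only [inv_inv] at this
    rw [this, mul_one]
  · rw [hsupp g hg, mul_zero]

theorem mulVec_supp {e : Matrix G G k} {O : Finset G} (h : dg k O * e = e) (v : G → k) {g : G}
    (hg : g ∉ O) : e.mulVec v g = 0 := by
  have h1 : ∀ c, e g c = 0 := by
    intro c
    rw [← h, dg, Matrix.diagonal_mul, if_neg hg, zero_mul]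
  simp only [Matrix.mulVec, dotProduct, h1, zero_mul, Finset.sum_const_zero]

section Prim

variable {p : ℕ} [hp : Fact p.Prime] [CharP k p]

theorem isPGroup_prod (hS : IsPGroup p S) : IsPGroup p (S × S) := by
  intro y
  obtain ⟨a, ha⟩ := hS y.1
  obtain ⟨b, hb⟩ := hS y.2
  refine ⟨a + b, ?_⟩
  ext
  · change ((y.1 ^ p ^ (a + b) : S) : G) = 1
    rw [pow_add, pow_mul, ha, one_pow]
    rfl
  · change ((y.2 ^ p ^ (a + b) : S) : G) = 1
    rw [add_comm, pow_add, pow_mul, hb, one_pow]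
    rfl

/-- An idempotent of the corner killing the characteristic function vanishes. -/
theorem eq_zero_of_mulVec_ind (hS : IsPGroup p S) {e : Matrix G G k} (g₀ : G) (he : e ∈ biInv k S)
    (hee : e * e = e) (h1 : dg k (orb S g₀) * e = e) (h0 : e.mulVec (ind k (orb S g₀)) = 0) :
    e = 0 := by
  by_contra hne
  have hv : ∃ v, e.mulVec v ≠ 0 := by
    by_contra hcon
    push Not at hcon
    apply hne
    exact Matrix.ext_of_mulVec_single fun i => by rw [hcon, Matrix.zero_mulVec]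
  obtain ⟨v, hv⟩ := hv
  obtain ⟨u, ⟨w, rfl⟩, hu0, hufix⟩ := Cfsg.Agent.Lib.PermMod.Basic.exists_fixed_vector (K := k) (p := p)
    (isPGroup_prod hS) (biRep k S) (LinearMap.range e.mulVecLin)
    (by
      rintro y _ ⟨w, rfl⟩
      exact ⟨biRep k S y w, (biRep_mulVec he y w).symm⟩) ⟨v, rfl⟩ hv
  simp only [Matrix.mulVecLin_apply] at hu0 hufix
  have h2 := eq_smul_ind_of_fixed hufix (fun g hg => mulVec_supp h1 w hg)
  have hc : e.mulVec w g₀ ≠ 0 := by
    intro hc
    rw [hc, zero_smul] at h2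
    exact hu0 h2
  apply hu0
  have h3 : e.mulVec (e.mulVec w) = e.mulVec w := by
    rw [Matrix.mulVec_mulVec, hee]
  rw [← h3]
  conv_lhs => rw [h2]
  rw [Matrix.mulVec_smul, h0, smul_zero]

/-- The projection on a double coset is primitive. -/
theorem dg_prim (hS : IsPGroup p S) (g₀ : G) : IsPrimIn (biInv k S) (dg k (orb S g₀)) := by
  refine ⟨dg_mem g₀, dg_mul_self _, dg_ne_zero (self_mem_orb g₀), ?_⟩
  intro e he hee h1 h2
  set ι := dg k (orb S g₀) with hι
  set v := ind k (orb S g₀) with hv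
  have hιv : ι.mulVec v = v := by
    funext g
    simp only [hι, dg, Matrix.mulVec_diagonal, hv, ind]
    split_ifs <;> simp
  let w := e.mulVec v
  have hwfix : ∀ y : S × S, biRep k S y w = w := by
    intro y
    simp only [w]
    rw [biRep_mulVec he, hv, biRep_ind]
  have hw := eq_smul_ind_of_fixed hwfix (fun g hg => mulVec_supp h1 v hg)
  have hew : e.mulVec w = w := by
    simp only [w]
    rw [Matrix.mulVec_mulVec, hee]
  have hc : w g₀ * w g₀ = w g₀ := by
    have h3 := congrFun hew g₀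
    rw [hw, Matrix.mulVec_smul] at h3
    change w g₀ • w g₀ = _ at h3
    conv_rhs at h3 => rw [hw]
    simpa [ind, self_mem_orb] using h3
  have hcases : w g₀ = 0 ∨ w g₀ = 1 := by
    have : w g₀ * (w g₀ - 1) = 0 := by rw [mul_sub, hc]; simp
    rcases mul_eq_zero.mp this with h | h
    · exact Or.inl h
    · exact Or.inr (sub_eq_zero.mp h)
  rcases hcases with h0 | h0
  · left
    refine eq_zero_of_mulVec_ind hS g₀ he hee h1 ?_
    change w = 0
    rw [hw, h0, zero_smul]
  · right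
    have h3 : ι - e = 0 := by
      refine eq_zero_of_mulVec_ind hS g₀ ((biInv k S).sub_mem (dg_mem g₀) he) ?_ ?_ ?_
      · rw [sub_mul, mul_sub, mul_sub, hee, h1, h2, dg_mul_self]
        abel
      · rw [mul_sub, dg_mul_self, h1]
      · rw [Matrix.sub_mulVec, hιv]
        change v - w = 0
        rw [hw, h0, one_smul]
        exact sub_self _
    exact (sub_eq_zero.mp h3).symm

end Prim

/-! ### Ranks -/

theorem rank_eq_of_iso {a b : Matrix G G k} (h1 : a * b * (a * b) = a * b)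
    (h2 : b * a * (b * a) = b * a) : (a * b).rank = (b * a).rank := by
  apply le_antisymm
  · calc (a * b).rank = (a * (b * a) * b).rank := by
          rw [show a * (b * a) * b = a * b * (a * b) by noncomm_ring, h1]
      _ ≤ (a * (b * a)).rank := Matrix.rank_mul_le_left _ _
      _ ≤ (b * a).rank := Matrix.rank_mul_le_right _ _
  · calc (b * a).rank = (b * (a * b) * a).rank := by
          rw [show b * (a * b) * a = b * a * (b * a) by noncomm_ring, h2]
      _ ≤ (b * (a * b)).rank := Matrix.rank_mul_le_left _ _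
      _ ≤ (a * b).rank := Matrix.rank_mul_le_right _ _

theorem eq_of_rank_le {π ρ : Matrix G G k} (h2 : ρ * ρ = ρ) (h3 : π * ρ = ρ) (h4 : ρ * π = ρ)
    (h5 : π.rank ≤ ρ.rank) : ρ = π := by
  have hle : LinearMap.range ρ.mulVecLin ≤ LinearMap.range π.mulVecLin := by
    rintro _ ⟨v, rfl⟩
    refine ⟨ρ.mulVec v, ?_⟩
    simp only [Matrix.mulVecLin_apply, Matrix.mulVec_mulVec, h3]
  have heq : LinearMap.range ρ.mulVecLin = LinearMap.range π.mulVecLin :=
    Submodule.eq_of_le_of_finrank_le hle h5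
  have h6 : ρ * π = π := by
    refine Matrix.ext_of_mulVec_single fun i => ?_
    have hm : π.mulVec (Pi.single i 1) ∈ LinearMap.range ρ.mulVecLin := by
      rw [heq]
      exact ⟨_, rfl⟩
    obtain ⟨u, hu⟩ := hm
    rw [Matrix.mulVecLin_apply] at hu
    rw [← Matrix.mulVec_mulVec, ← hu, Matrix.mulVec_mulVec, h2]
  rw [← h6, h4]

theorem rank_dg (O : Finset G) : (dg k O).rank = O.card := by
  classical
  rw [dg, Matrix.rank_diagonal, Fintype.card_subtype]
  congr 1
  ext g
  simp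

/-- The group `S ∩ g S g⁻¹`. -/
def Ag (S : Subgroup G) (g : G) : Subgroup G := S ⊓ conjS g S

theorem mem_Ag {S : Subgroup G} {g q : G} : q ∈ Ag S g ↔ q ∈ S ∧ g⁻¹ * q * g ∈ S := by
  rw [Ag, Subgroup.mem_inf, mem_conjS]

/-- Orbit counting. -/
theorem card_sq_le (S : Subgroup G) (g : G) :
    Nat.card S * Nat.card S ≤ (orb S g).card * Nat.card (Ag S g) := by
  classical
  letI : Fintype S := Fintype.ofFinite _
  let F : S × S → G := fun y => (y.1 : G) * g * y.2
  have himg : (Finset.univ : Finset (S × S)).image F ⊆ orb S g := by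
    intro a ha
    obtain ⟨y, -, rfl⟩ := Finset.mem_image.mp ha
    exact mem_orb.mpr ⟨y.1, y.1.2, y.2, y.2.2, rfl⟩
  let tA : Finset G := Finset.univ.filter fun q => q ∈ Ag S g
  have htA : tA.card = Nat.card (Ag S g) := by
    rw [Nat.card_eq_fintype_card, Fintype.card_subtype]
  have h1 := Finset.card_le_mul_card_image (f := F) (Finset.univ : Finset (S × S)) tA.card (by
      intro a ha
      obtain ⟨y₀, -, rfl⟩ := Finset.mem_image.mp ha
      refine Finset.card_le_card_of_injOn (fun y => (y₀.1 : G)⁻¹ * y.1) ?_ ?_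
      · intro y hy
        have hy' : (y.1 : G) * g * y.2 = (y₀.1 : G) * g * y₀.2 := (Finset.mem_filter.mp hy).2
        refine Finset.mem_coe.mpr (Finset.mem_filter.mpr ⟨Finset.mem_univ _, mem_Ag.mpr ⟨?_, ?_⟩⟩)
        · exact S.mul_mem (S.inv_mem y₀.1.2) y.1.2
        · have h2 : g⁻¹ * ((y₀.1 : G)⁻¹ * y.1) * g = (y₀.2 : G) * (y.2 : G)⁻¹ := by
            have h3 : (y.1 : G) * g = (y₀.1 : G) * g * y₀.2 * (y.2 : G)⁻¹ := by
              rw [← hy']
              group
            calc g⁻¹ * ((y₀.1 : G)⁻¹ * y.1) * g = g⁻¹ * (y₀.1 : G)⁻¹ * ((y.1 : G) * g) := by group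
              _ = _ := by rw [h3]; group
          rw [h2]
          exact S.mul_mem y₀.2.2 (S.inv_mem y.2.2)
      · intro y hy z hz hyz
        have hy' : (y.1 : G) * g * y.2 = (y₀.1 : G) * g * y₀.2 :=
          (Finset.mem_filter.mp (Finset.mem_coe.mp hy)).2
        have hz' : (z.1 : G) * g * z.2 = (y₀.1 : G) * g * y₀.2 :=
          (Finset.mem_filter.mp (Finset.mem_coe.mp hz)).2
        have h4 : (y.1 : G) = z.1 := mul_left_cancel hyz
        have h5 : (y.2 : G) = z.2 := by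
          apply mul_left_cancel (a := (y.1 : G) * g)
          rw [hy', h4, hz']
        exact Prod.ext (Subtype.ext h4) (Subtype.ext h5))
  have h2 : (Finset.univ : Finset (S × S)).card = Nat.card S * Nat.card S := by
    rw [Finset.card_univ, Fintype.card_prod, Nat.card_eq_fintype_card]
  rw [h2, htA] at h1
  calc Nat.card S * Nat.card S ≤ Nat.card (Ag S g) * ((Finset.univ : Finset (S × S)).image F).card := h1
    _ ≤ Nat.card (Ag S g) * (orb S g).card := Nat.mul_le_mul_left _ (Finset.card_le_card himg)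
    _ = _ := mul_comm _ _

section Main

variable {p : ℕ} [hp : Fact p.Prime] [CharP k p] [IsAlgClosed k]

/-- Every primitive idempotent is isomorphic to a projection on a double coset. -/
theorem exists_iso_dg (hS : IsPGroup p S) {ρ : Matrix G G k} (hρ : IsPrimIn (biInv k S) ρ) :
    ∃ (g₀ : G) (a b : Matrix G G k), a ∈ biInv k S ∧ b ∈ biInv k S ∧ a * dg k (orb S g₀) = a ∧
      dg k (orb S g₀) * b = b ∧ a * b = ρ ∧ b * a = dg k (orb S g₀) := by
  have hsum : ∑ O ∈ Finset.univ.image (orb S), ρ * dg k O * ρ = ρ := by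
    rw [← Finset.sum_mul, ← Finset.mul_sum, sum_dg, mul_one, hρ.idem]
  have hc : ∀ O ∈ Finset.univ.image (orb S), InCorner (biInv k S) ρ (ρ * dg k O * ρ) := by
    intro O hO
    obtain ⟨g, -, rfl⟩ := Finset.mem_image.mp hO
    exact InCorner.of_mem hρ.mem hρ.idem (dg_mem g)
  obtain ⟨O, hO, hne⟩ := hρ.exists_kap_ne_of_sum _ _ hc hsum
  obtain ⟨g₀, -, rfl⟩ := Finset.mem_image.mp hO
  have hι := dg_prim (k := k) hS g₀
  have hιι := dg_mul_self (k := k) (orb S g₀)
  obtain ⟨a, b, ha, hb, -, h2, h3, -, h5, h6⟩ := hρ.exists_iso hι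
    (a := ρ * dg k (orb S g₀)) (b := dg k (orb S g₀) * ρ)
    ((biInv k S).mul_mem hρ.mem hι.mem) ((biInv k S).mul_mem hι.mem hρ.mem)
    (by rw [← mul_assoc, hρ.idem]) (by rw [mul_assoc, hιι]) (by rw [← mul_assoc, hιι])
    (by rw [mul_assoc, hρ.idem]) (by
      have : ρ * dg k (orb S g₀) * (dg k (orb S g₀) * ρ) = ρ * dg k (orb S g₀) * ρ := by
        rw [mul_assoc, ← mul_assoc (dg k (orb S g₀)), hιι]
        rw [mul_assoc]
      rw [this]
      exact hne)
  exact ⟨g₀, a, b, ha, hb, h2, h3, h5, h6⟩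

theorem mulMat_mem {z : MonoidAlgebra k G} (hzc : ∀ g h, z.coeff (h * g * h⁻¹) = z.coeff g) :
    mulMat z ∈ biInv k S := by
  intro s _ t _ g h
  simp only [mulMat_apply]
  have h1 : (s * h * t)⁻¹ * (s * g * t) = t⁻¹ * (h⁻¹ * g) * t⁻¹⁻¹ := by group
  rw [h1, hzc]

theorem mulMat_idem {z : MonoidAlgebra k G} (hzz : z * z = z) : mulMat z * mulMat z = mulMat z := by
  ext g h
  rw [Matrix.mul_apply]
  simp only [mulMat_apply]
  conv_rhs => rw [← hzz, coeff_mul_sumK]
  rw [← Equiv.sum_comp (Equiv.mulLeft h)]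
  refine Finset.sum_congr rfl fun v _ => ?_
  simp only [Equiv.coe_mulLeft]
  rw [mul_comm]
  congr 2
  · group
  · group

theorem van_mulMat_iff {z : MonoidAlgebra k G} (hzc : ∀ g h, z.coeff (h * g * h⁻¹) = z.coeff g) :
    Van Q x (mulMat z) ↔ ∀ u ∈ cen Q, z.coeff u = 0 := by
  constructor
  · intro h u hu
    have h1 := h (u * x⁻¹) x⁻¹ (by simpa using hu) (by simpa using (cen Q).one_mem)
    simp only [mulMat_apply] at h1
    have h2 : x⁻¹⁻¹ * (u * x⁻¹) = x * u * x⁻¹ := by group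
    rw [h2, hzc] at h1
    exact h1
  · intro h g g' hg hg'
    simp only [mulMat_apply]
    have h2 : g'⁻¹ * g = x * ((g' * x)⁻¹ * (g * x)) * x⁻¹ := by group
    rw [h2, hzc]
    exact h _ ((cen Q).mul_mem ((cen Q).inv_mem hg') hg)

theorem van_dg_iff {O : Finset G} : Van Q x (dg k O) ↔ ∀ g ∈ O, g * x ∉ cen Q := by
  constructor
  · intro h g hg hgx
    have := h g g hgx hgx
    simp [dg, hg] at this
  · intro h g g' hg _
    by_cases hgg : g = g'
    · subst hgg
      simp only [dg, Matrix.diagonal_apply_eq]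
      rw [if_neg]
      intro hgO
      exact h g hgO hg
    · simp [dg, hgg]

/-- **Fusion of an idempotent of minimal rank.** -/
theorem fusion_of_min_rank (hS : IsPGroup p S) (z : MonoidAlgebra k G)
    (hzc : ∀ g h, z.coeff (h * g * h⁻¹) = z.coeff g) (hzz : z * z = z)
    (D' : Subgroup G) (hD'S : D' ≤ S) (hD' : ∃ u ∈ cen D', z.coeff u ≠ 0)
    (hbound : ∀ A : Subgroup G, A ≤ S → (∃ u ∈ cen A, z.coeff u ≠ 0) → Nat.card A ≤ Nat.card D')
    (hrank : (mulMat z).rank * Nat.card D' ≤ Nat.card S * Nat.card S)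
    (hQS : Q ≤ S) (hx : ∀ q ∈ Q, x * q * x⁻¹ ∈ S)
    (hQz : ∃ u ∈ cen Q, z.coeff u ≠ 0) : ∃ w ∈ S, ∀ q ∈ Q, x * q * x⁻¹ = w * q * w⁻¹ := by
  classical
  set π := mulMat z with hπ
  have hπm : π ∈ biInv k S := mulMat_mem hzc
  have hππ : π * π = π := mulMat_idem hzz
  have hnv : ∀ A : Subgroup G, (∃ u ∈ cen A, z.coeff u ≠ 0) → ∀ y : G, ¬ Van A y π := by
    rintro A ⟨u, hu, hu0⟩ y h
    exact hu0 ((van_mulMat_iff hzc).mp h u hu)
  have hπ0 : π ≠ 0 := by
    intro h0
    apply hnv D' hD' 1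
    rw [h0]
    intro _ _ _ _
    rfl
  obtain ⟨s, hs1, -, hs3⟩ := exists_prim_decomp (biInv k S) hπm hππ
  have hsne : s.Nonempty := by
    by_contra hcon
    rw [Finset.not_nonempty_iff_eq_empty] at hcon
    rw [hcon, Finset.sum_empty] at hs3
    exact hπ0 hs3.symm
  obtain ⟨ρ, hρs⟩ := hsne
  obtain ⟨hρ, hπρ, hρπ⟩ := hs1 ρ hρs
  obtain ⟨g₀, a, b, ha, hb, hai, hib, hab, hba⟩ := exists_iso_dg hS hρ
  set ι := dg k (orb S g₀) with hι
  have hιm : ι ∈ biInv k S := dg_mem g₀
  -- transfer of vanishing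
  have hT1 : ∀ (A : Subgroup G) (y : G), A ≤ S → (∀ q ∈ A, y * q * y⁻¹ ∈ S) → Van A y ι → Van A y ρ := by
    intro A y hAS hy hv
    have h1 := Van.mul_left hS hAS hy ha hιm hv
    rw [hai] at h1
    have h2 := Van.mul_right hS hAS hy ha hb h1
    rwa [hab] at h2
  have hT2 : ∀ (A : Subgroup G) (y : G), A ≤ S → (∀ q ∈ A, y * q * y⁻¹ ∈ S) → Van A y ρ → Van A y ι := by
    intro A y hAS hy hv
    have h1 := Van.mul_right hS hAS hy hρ.mem ha hv
    have h3 : ρ * a = a := by rw [← hab, mul_assoc, hba, hai]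
    rw [h3] at h1
    have h2 := Van.mul_left hS hAS hy hb ha h1
    rwa [hba] at h2
  have hT3 : ∀ (A : Subgroup G) (y : G), A ≤ S → (∀ q ∈ A, y * q * y⁻¹ ∈ S) → Van A y π → Van A y ρ := by
    intro A y hAS hy hv
    have h1 := Van.mul_right hS hAS hy hπm hρ.mem hv
    rwa [hπρ] at h1
  -- bound on the stabilizers
  have hAbound : ∀ g ∈ orb S g₀, Nat.card (Ag S g) ≤ Nat.card D' := by
    intro g hg
    apply hbound _ inf_le_left
    by_contra hcon
    push Not at hcon
    have hy : ∀ q ∈ Ag S g, g⁻¹ * q * g⁻¹⁻¹ ∈ S := fun q hq => by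
      rw [inv_inv]
      exact (mem_Ag.mp hq).2
    have h1 : Van (Ag S g) g⁻¹ π := (van_mulMat_iff hzc).mpr hcon
    have h2 := hT2 _ _ inf_le_left hy (hT3 _ _ inf_le_left hy h1)
    exact (van_dg_iff.mp h2) g hg (by simpa using (cen (Ag S g)).one_mem)
  -- ranks
  have hρrank : ρ.rank = (orb S g₀).card := by
    rw [← hab, rank_eq_of_iso (by rw [hab, hρ.idem]) (by rw [hba, dg_mul_self]), hba, rank_dg]
  have hcardD : 0 < Nat.card D' := Nat.card_pos
  have hle : π.rank ≤ ρ.rank := by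
    rw [hρrank]
    have h1 := card_sq_le S g₀
    have h2 := hAbound g₀ (self_mem_orb g₀)
    have h3 : π.rank * Nat.card D' ≤ (orb S g₀).card * Nat.card D' :=
      hrank.trans (h1.trans (Nat.mul_le_mul_left _ h2))
    exact Nat.le_of_mul_le_mul_right h3 hcardD
  have hρeq : ρ = π := eq_of_rank_le hρ.idem hπρ hρπ hle
  -- the base point
  have h1y : ∀ q ∈ D', (1 : G) * q * (1 : G)⁻¹ ∈ S := fun q hq => by
    simpa using hD'S hq
  have hb1 : ¬ Van D' 1 ι := by
    intro h
    have := hT1 _ _ hD'S h1y h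
    rw [hρeq] at this
    exact hnv D' hD' 1 this
  have hb2 : ∃ g ∈ orb S g₀, g ∈ cen D' := by
    by_contra hcon
    push Not at hcon
    apply hb1
    rw [hι, van_dg_iff]
    intro g hg
    simpa using hcon g hg
  obtain ⟨g, hgO, hgc⟩ := hb2
  have hAD : Ag S g = D' := by
    have hle' : D' ≤ Ag S g := by
      intro q hq
      refine mem_Ag.mpr ⟨hD'S hq, ?_⟩
      have : q * g = g * q := (Subgroup.mem_centralizer_iff.mp hgc) q hq
      rw [mul_assoc, this, ← mul_assoc, inv_mul_cancel, one_mul]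
      exact hD'S hq
    exact (Subgroup.eq_of_le_of_card_ge hle' (hAbound g hgO)).symm
  -- the conclusion
  have hQv : ¬ Van Q x ι := by
    intro h
    have := hT1 _ _ hQS hx h
    rw [hρeq] at this
    exact hnv Q hQz x this
  have hQe : ∃ a₁ ∈ orb S g₀, a₁ * x ∈ cen Q := by
    by_contra hcon
    push Not at hcon
    apply hQv
    rw [hι, van_dg_iff]
    exact hcon
  obtain ⟨a₁, ha₁, ha₁c⟩ := hQe
  rw [← orb_eq_of_mem hgO] at ha₁
  obtain ⟨s₁, hs₁, t₁, ht₁, rfl⟩ := mem_orb.mp ha₁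
  refine ⟨t₁⁻¹ * s₁⁻¹, S.mul_mem (S.inv_mem ht₁) (S.inv_mem hs₁), ?_⟩
  intro q hq
  let α := s₁⁻¹ * q * s₁
  let β := t₁ * (x * q⁻¹ * x⁻¹) * t₁⁻¹
  have hαS : α ∈ S := S.mul_mem (S.mul_mem (S.inv_mem hs₁) (hQS hq)) hs₁
  have hτ : x * q⁻¹ * x⁻¹ ∈ S := hx _ (Q.inv_mem hq)
  have hβS : β ∈ S := S.mul_mem (S.mul_mem ht₁ hτ) (S.inv_mem ht₁)
  have hcomm : q * (s₁ * g * t₁ * x) = s₁ * g * t₁ * x * q :=
    (Subgroup.mem_centralizer_iff.mp ha₁c) q hq
  have hαβ : α * g * β = g := by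
    simp only [α, β]
    calc s₁⁻¹ * q * s₁ * g * (t₁ * (x * q⁻¹ * x⁻¹) * t₁⁻¹)
        = s₁⁻¹ * (q * (s₁ * g * t₁ * x)) * q⁻¹ * x⁻¹ * t₁⁻¹ := by group
      _ = g := by rw [hcomm]; group
  have hαA : α ∈ Ag S g := by
    refine mem_Ag.mpr ⟨hαS, ?_⟩
    have h1 : g⁻¹ * α * g = β⁻¹ := by
      calc g⁻¹ * α * g = g⁻¹ * (α * g * β) * β⁻¹ := by group
        _ = β⁻¹ := by rw [hαβ]; group
    rw [h1]
    exact S.inv_mem hβS
  rw [hAD] at hαA
  have hαg : α * g = g * α := (Subgroup.mem_centralizer_iff.mp hgc) α hαA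
  have hβα : β = α⁻¹ := by
    have h1 : g * (α * β) = g * 1 := by
      rw [mul_one, ← mul_assoc, ← hαg, hαβ]
    have h2 := mul_left_cancel h1
    exact eq_inv_of_mul_eq_one_right h2
  simp only [α, β] at hβα
  have h3 : x * q⁻¹ * x⁻¹ = t₁⁻¹ * s₁⁻¹ * q⁻¹ * (t₁⁻¹ * s₁⁻¹)⁻¹ := by
    have h4 : x * q⁻¹ * x⁻¹ = t₁⁻¹ * (t₁ * (x * q⁻¹ * x⁻¹) * t₁⁻¹) * t₁ := by group
    rw [h4, hβα]
    group
  have h5 := congrArg (·⁻¹) h3
  calc x * q * x⁻¹ = (x * q⁻¹ * x⁻¹)⁻¹ := by group
    _ = (t₁⁻¹ * s₁⁻¹ * q⁻¹ * (t₁⁻¹ * s₁⁻¹)⁻¹)⁻¹ := h5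
    _ = _ := by group

end Main

end Cfsg.Agent.Lib.Star.BiPerm
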