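import Cfsg.Agent.Lib.Star.BiPerm
import Cfsg.Agent.Lib.BlockH.MaxPair
import Cfsg.Agent.Lib.Blocks.Defect2
import Cfsg.Agent.Lib.BlockAlg.Brandt

/-!
# Blocks of minimal dimension are nilpotent
-/

set_option autoImplicit false
set_option linter.unusedSectionVars false
set_option linter.style.haveILetI false

namespace Cfsg.Agent.Lib.Star.MinDim

open Cfsg MonoidAlgebra Cfsg.Agent.Lib.BlockAlg
open Cfsg.Agent.Lib.Blocks.Local Cfsg.Agent.Lib.Blocks.Central Cfsg.Agent.Lib.Blocks.Brauer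
open Cfsg.Agent.Lib.Blocks.Induced Cfsg.Agent.Lib.Blk89.BlockPow
open Cfsg.Agent.Lib.BlockH.BrauerMap Cfsg.Agent.Lib.BlockH.Subpair
open Cfsg.Agent.Lib.Blocks.Defect2 Cfsg.Agent.Lib.Star.BiPerm Cfsg.Agent.Lib.BlockH.Pairs
open Cfsg.Agent.Lib.BlockP.Stable Cfsg.Agent.Lib.BlockT.SylowIn
open Cfsg.Agent.Lib.BlockH.Transport Cfsg.Agent.Lib.BlockH.MaxPair Cfsg.Agent.Lib.Blocks.Weak
open scoped ComplexConjugate

universe u

variable {G : Type u} [Group G] [Fintype G] {M : Ideal AlgInt} {p : ℕ}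

/-- A `p`-regular element inducing on `Q` the same automorphism as an element of a `p`-group
centralizes `Q`. -/
theorem mem_cen_of_fusion {S Q : Subgroup G} (hS : IsPGroup p S) {x w : G}
    (hxN : x ∈ Subgroup.normalizer (Q : Set G)) (hreg : ¬ p ∣ orderOf x) (hw : w ∈ S)
    (hxw : ∀ q ∈ Q, x * q * x⁻¹ = w * q * w⁻¹) (hp : p.Prime) : x ∈ Subgroup.centralizer (Q : Set G) := by
  haveI : Fact p.Prime := ⟨hp⟩
  have hxQ : ∀ q ∈ Q, x * q * x⁻¹ ∈ Q := fun q hq => by
    have := (Subgroup.mem_normalizer_iff.mp hxN q).mp hq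
    exact this
  have hpow : ∀ n : ℕ, ∀ q ∈ Q, x ^ n * q * (x ^ n)⁻¹ = w ^ n * q * (w ^ n)⁻¹ := by
    intro n
    induction n with
    | zero => intro q _; simp
    | succ n ih =>
      intro q hq
      have h1 := ih (x * q * x⁻¹) (hxQ q hq)
      calc x ^ (n + 1) * q * (x ^ (n + 1))⁻¹ = x ^ n * (x * q * x⁻¹) * (x ^ n)⁻¹ := by
            rw [pow_succ]; group
        _ = w ^ n * (x * q * x⁻¹) * (w ^ n)⁻¹ := h1
        _ = w ^ n * (w * q * w⁻¹) * (w ^ n)⁻¹ := by rw [hxw q hq]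
        _ = _ := by rw [pow_succ]; group
  have hwn : w ^ orderOf x ∈ Subgroup.centralizer (Q : Set G) := by
    rw [Subgroup.mem_centralizer_iff]
    intro q hq
    have h1 := hpow (orderOf x) q hq
    rw [pow_orderOf_eq_one, one_mul, inv_one, mul_one] at h1
    have : w ^ orderOf x * q * (w ^ orderOf x)⁻¹ = q := h1.symm
    exact (mul_inv_eq_iff_eq_mul.mp this).symm
  obtain ⟨m, hm⟩ := (IsPGroup.iff_orderOf.mp hS) ⟨w, hw⟩
  have hm' : orderOf w = p ^ m := by
    rw [← hm, Subgroup.orderOf_mk]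
  have hcop : Nat.Coprime (orderOf x) (orderOf w) := by
    rw [hm']
    exact Nat.Coprime.pow_right _ ((Nat.Coprime.symm ((Nat.Prime.coprime_iff_not_dvd hp).mpr hreg)))
  have hwmem : w ∈ Subgroup.centralizer (Q : Set G) := by
    have hg := Nat.gcd_eq_gcd_ab (orderOf x) (orderOf w)
    rw [hcop] at hg
    have h1 : w = (w ^ orderOf x) ^ (Nat.gcdA (orderOf x) (orderOf w)) := by
      calc w = w ^ ((1 : ℕ) : ℤ) := by simp
        _ = w ^ ((orderOf x : ℤ) * Nat.gcdA (orderOf x) (orderOf w) +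
              (orderOf w : ℤ) * Nat.gcdB (orderOf x) (orderOf w)) := by rw [hg]
        _ = _ := by
          rw [zpow_add, zpow_mul, zpow_mul w (orderOf w : ℤ), zpow_natCast, zpow_natCast,
            pow_orderOf_eq_one, one_zpow, mul_one]
    rw [h1]
    exact Subgroup.zpow_mem _ hwn _
  rw [Subgroup.mem_centralizer_iff]
  intro q hq
  have h2 := hxw q hq
  have h3 : w * q = q * w := (Subgroup.mem_centralizer_iff.mp hwmem) q hq |>.symm
  rw [h3, mul_inv_cancel_right] at h2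
  exact (mul_inv_eq_iff_eq_mul.mp h2).symm

section Block

variable [Fintype (IrrCharacter G)]

/-- The rank of the right multiplication by a block idempotent, over the residue field. -/
theorem rank_red_idem_le [M.IsPrime] {B : Set (IrrCharacter G)} (hB : IsPBlock M B) [DecidableEq G] :
    (mulMat (red M (idem B : GA G))).rank ≤ ∑ᶠ χ ∈ B, charDegree (χ : G → ℂ) ^ 2 := by
  classical
  have hR : Rc M (idem B : GA G) := idem_mem_localCenter hB
  rw [← rk_eq_rank]
  refine (rk_red_le hR).trans (le_of_eq ?_)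
  have h1 := rk_of_idempotent (idem B : GA G) (congrArg Subtype.val (Cfsg.Agent.Lib.Blocks.Weak.idem_mul_self B))
  rw [coeff_idem, blockCoeff] at h1
  have h2 : (Fintype.card G : ℂ) ≠ 0 := Nat.cast_ne_zero.mpr Fintype.card_ne_zero
  rw [Nat.card_eq_fintype_card, ← mul_assoc, mul_inv_cancel₀ h2, one_mul] at h1
  have h3 : ((∑ᶠ χ ∈ B, charDegree (χ : G → ℂ) ^ 2 : ℕ) : ℂ) =
      ∑ᶠ χ ∈ B, ((χ : G → ℂ) 1 * conj ((χ : G → ℂ) 1)) := by
    have h4 := AddMonoidHom.map_finsum_mem (fun χ : IrrCharacter G => charDegree (χ : G → ℂ) ^ 2)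
      (Nat.castAddMonoidHom ℂ) (Set.toFinite B)
    simp only [Nat.coe_castAddMonoidHom] at h4
    rw [h4]
    refine finsum_mem_congr rfl fun χ _ => ?_
    rw [← Cfsg.Agent.Lib.Char.Degree.charDegree_natCast
      (Cfsg.Agent.Lib.Char.Basic.isCharacter_of_isIrrCharacter χ.2), Complex.conj_natCast]
    push_cast
    ring
  have h5 : (rk ℂ (idem B : GA G) : ℂ) = ((∑ᶠ χ ∈ B, charDegree (χ : G → ℂ) ^ 2 : ℕ) : ℂ) := by
    rw [h1, h3]
  exact_mod_cast h5

end Block

/-- **Blocks of minimal dimension are nilpotent.** -/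
theorem isNilpotentBlock_of_min {G : Type u} [Group G] [Finite G] [Fact p.Prime] (hM : IsPModular p M)
    {B : Set (IrrCharacter G)} (hB : IsPBlock M B) {D : Subgroup G} (hD : IsDefectGroup p M B D)
    {a d : ℕ} (ha : (Nat.card G).factorization p = a) (hd : Nat.card D = p ^ d)
    (hmin : ∑ᶠ χ ∈ B, charDegree (χ : G → ℂ) ^ 2 = p ^ (2 * a - d)) : IsNilpotentBlock p M B := by
  classical
  haveI := isPrime_of_pModular hM
  letI : Fintype G := Fintype.ofFinite G
  haveI := Cfsg.Agent.Lib.Char.Ortho.finite_irrCharacter (G := G)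
  letI : Fintype (IrrCharacter G) := Fintype.ofFinite _
  haveI := charP_res hM
  have hp : p.Prime := Fact.out
  refine ⟨hB, ?_⟩
  intro Q e hQe x hxN _ hxreg
  have hR : Rc M (idem B : GA G) := idem_mem_localCenter hB
  set z : MonoidAlgebra (Res M) G := red M (idem B : GA G) with hz
  have hzcoeff : ∀ u, z.coeff u = r M (blockCoeff B u) := fun u => rfl
  have hzc : ∀ g h, z.coeff (h * g * h⁻¹) = z.coeff g := by
    intro g h
    rw [hzcoeff, hzcoeff]
    exact (congrArg (r M) (blockCoeff_of_isConj B (isConj_iff.mpr ⟨h, rfl⟩))).symm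
  have hzz : z * z = z := by
    rw [hz, ← red_mul hR hR]
    congr 1
    exact congrArg Subtype.val (Cfsg.Agent.Lib.Blocks.Weak.idem_mul_self B)
  have hzne : ∀ u, z.coeff u ≠ 0 ↔ ¬ MemLocalIdeal M (blockCoeff B u) := by
    intro u
    rw [hzcoeff, Ne, r_eq_zero_iff (memLocalRing_blockCoeff hB u)]
  -- the Sylow subgroup
  have hDp : IsPGroup p D := isDefectGroup_isPGroup hD
  obtain ⟨S, hQS⟩ := hQe.1.1.exists_le_sylow
  obtain ⟨S₀, hDS₀⟩ := hDp.exists_le_sylow
  obtain ⟨t, ht⟩ := MulAction.exists_smul_eq G S₀ S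
  have hS : IsPGroup p (S : Subgroup G) := S.isPGroup'
  let D' : Subgroup G := D.map (MulAut.conj t).toMonoidHom
  have hD'S : D' ≤ S := by
    rw [← ht]
    exact Subgroup.map_mono hDS₀
  have hD'card : Nat.card D' = Nat.card D := card_conj_eq D t
  have hD'p : IsPGroup p D' := hS.to_le hD'S
  have hD'nz : ∃ u ∈ Star.cen D', z.coeff u ≠ 0 := by
    obtain ⟨g, -, hg, c, hgc, hc⟩ := (exists_coeff_centralizer_iff hM hB hD hD'p).mpr
      ⟨t⁻¹, le_of_eq (Cfsg.Agent.Lib.BlockH.ConjPair.map_conj_inv rfl)⟩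
    refine ⟨c, hc, ?_⟩
    rw [hzne, ← blockCoeff_of_isConj B hgc]
    exact hg
  have hbound : ∀ A : Subgroup G, A ≤ S → (∃ u ∈ Star.cen A, z.coeff u ≠ 0) →
      Nat.card A ≤ Nat.card D' := by
    rintro A hAS ⟨u, hu, hu0⟩
    obtain ⟨y, hy⟩ := (exists_coeff_centralizer_iff hM hB hD (hS.to_le hAS)).mp
      ⟨u, memLocalRing_blockCoeff hB u, (hzne u).mp hu0, u, IsConj.refl _, hu⟩
    rw [hD'card, ← card_conj_eq A y]
    exact Subgroup.card_le_of_le hy
  have hScard : Nat.card (S : Subgroup G) = p ^ a := by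
    rw [← ha]
    exact S.card_eq_multiplicity
  have hda : d ≤ a := by
    have h1 := Subgroup.card_le_of_le hD'S
    rw [hD'card, hd, hScard] at h1
    exact (Nat.pow_le_pow_iff_right hp.one_lt).mp h1
  have hrank : (mulMat z).rank * Nat.card D' ≤ Nat.card (S : Subgroup G) * Nat.card (S : Subgroup G) := by
    have h1 := rank_red_idem_le (M := M) hB
    rw [hmin] at h1
    rw [hD'card, hd, hScard]
    calc (mulMat z).rank * p ^ d ≤ p ^ (2 * a - d) * p ^ d := Nat.mul_le_mul_right _ h1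
      _ = p ^ a * p ^ a := by
        rw [← pow_add, ← pow_add]
        congr 1
        omega
  have hQz : ∃ u ∈ Star.cen Q, z.coeff u ≠ 0 := by
    by_contra hno
    push Not at hno
    letI : Fintype (Subgroup.centralizer (Q : Set G)) := Fintype.ofFinite _
    haveI := Cfsg.Agent.Lib.Char.Ortho.finite_irrCharacter (G := Subgroup.centralizer (Q : Set G))
    letI : Fintype (IrrCharacter (Subgroup.centralizer (Q : Set G))) := Fintype.ofFinite _
    obtain ⟨ξ, hξ⟩ := isPBlock_nonempty hQe.1.2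
    have h1 := hQe.2.2 ξ hξ
    rw [brauerOmega_blockCoeff] at h1
    have h2 := brH_memLocalIdeal_of_forall (ξ := ξ) (QInv.of_central (isCentral_of_mem (idem B)))
      (fun c hc => by
        have h3 := hno c hc
        rw [coeff_idem]
        exact not_not.mp (fun h4 => (hzne c).mpr h4 h3))
    have h3 := memLocalIdeal_sub h2 h1
    rw [show brH Q ξ (idem B : GA G) - (brH Q ξ (idem B : GA G) - 1) = 1 by ring] at h3
    exact one_notMemLocalIdeal h3
  have hx : ∀ q ∈ Q, x * q * x⁻¹ ∈ (S : Subgroup G) := fun q hq => by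
    have := (Subgroup.mem_normalizer_iff.mp hxN q).mp hq
    exact hQS this
  obtain ⟨w, hwS, hxw⟩ := fusion_of_min_rank hS z hzc hzz D' hD'S hD'nz hbound hrank hQS hx hQz
  exact mem_cen_of_fusion hS hxN hxreg hwS hxw hp

end Cfsg.Agent.Lib.Star.MinDim
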