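import Mathlib
import Cfsg.Agent.Lib.Star.Wat3
import Cfsg.Agent.Lib.Dade.Base

/-!
# Blocks with abelian defect group: the theorem of Watanabe
-/

set_option linter.unusedSectionVars false
set_option autoImplicit false
set_option linter.style.haveILetI false

namespace Cfsg.Agent.Lib.Star.Wat4

open Cfsg MonoidAlgebra
open Cfsg.Agent.Lib.Blocks.Local Cfsg.Agent.Lib.Blocks.Central Cfsg.Agent.Lib.Blocks.Brauer
open Cfsg.Agent.Lib.BlockH.Transport Cfsg.Agent.Lib.BlockH.Subpair Cfsg.Agent.Lib.BlockH.SubpairLE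
open Cfsg.Agent.Lib.BlockH.ConjPair Cfsg.Agent.Lib.BlockH.MaxPair Cfsg.Agent.Lib.BlockH.Descent
open Cfsg.Agent.Lib.BlockH.InducedPairs Cfsg.Agent.Lib.BlockH.Saturation
open Cfsg.Agent.Lib.BP.StarDefs Cfsg.Agent.Lib.BP.Star1
open Cfsg.Agent.Lib.BP.Star2 Cfsg.Agent.Lib.BP.Star3 Cfsg.Agent.Lib.BP.Rob1 Cfsg.Agent.Lib.BP.Rob2
open Cfsg.Agent.Lib.BP.Nil1 Cfsg.Agent.Lib.BP.Nil2
open Cfsg.Agent.Lib.Star.Wat1 Cfsg.Agent.Lib.Star.Wat2 Cfsg.Agent.Lib.Star.Wat3
open scoped ComplexConjugate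

universe u

variable {G : Type u} [Group G] [Fintype G] {p : ℕ} {M : Ideal AlgInt}

attribute [local instance] fK fIrr fBl

variable {P : Subgroup G} {e : Set (IrrCharacter (Subgroup.centralizer (P : Set G)))} {B : Set (IrrCharacter G)}

/-- The stabilizer in `C_G(w)`. -/
theorem mem_stab_down (hab : ∀ x ∈ P, ∀ y ∈ P, x * y = y * x) {w : G} (hw : w ∈ P) (x : cZ w) :
    x ∈ stabSub (P.subgroupOf (cZ w)) (eDown e hab hw) ↔ (x : G) ∈ stabSub P e := by
  constructor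
  · rintro ⟨h1, h2⟩
    refine ⟨(normalizer_iff_of_map (map_P hab hw)).mpr h1, ?_⟩
    have h3 := (stabilizesBlock_desc (map_P hab hw) (C_le_cZ hw) (f := eDown e hab hw) h1).mpr h2
    rwa [eDown, blockMap_blockMap_symm] at h3
  · rintro ⟨h1, h2⟩
    have h3 := (normalizer_iff_of_map (map_P hab hw)).mp h1
    refine ⟨h3, (stabilizesBlock_desc (map_P hab hw) (C_le_cZ hw) (f := eDown e hab hw) h3).mp ?_⟩
    rwa [eDown, blockMap_blockMap_symm]

theorem hab_down (hab : ∀ x ∈ P, ∀ y ∈ P, x * y = y * x) (w : G) :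
    ∀ x ∈ P.subgroupOf (cZ w), ∀ y ∈ P.subgroupOf (cZ w), x * y = y * x := fun x hx y hy =>
  Subtype.ext (hab _ (Subgroup.mem_subgroupOf.mp hx) _ (Subgroup.mem_subgroupOf.mp hy))

/-- The centralizer in a centralizer. -/
theorem mem_cZ_sub {w : G} (x y : cZ w) : x ∈ cZ y ↔ Commute (x : G) (y : G) := by
  rw [mem_cZ]
  exact ⟨fun h => congrArg Subtype.val h, fun h => Subtype.ext h⟩

/-- The orders of the stabilizers. -/
theorem card_stab_down (hab : ∀ x ∈ P, ∀ y ∈ P, x * y = y * x) {w : G} (hw : w ∈ P)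
    (hT : stabSub P e ≤ cZ w) :
    Nat.card (stabSub (P.subgroupOf (cZ w)) (eDown e hab hw)) = Nat.card (stabSub P e) := by
  have h : (stabSub (P.subgroupOf (cZ w)) (eDown e hab hw)).map (cZ w).subtype = stabSub P e := by
    ext g
    constructor
    · rintro ⟨x, hx, rfl⟩
      exact (mem_stab_down hab hw x).mp hx
    · intro hg
      exact ⟨⟨g, hT hg⟩, (mem_stab_down hab hw _).mpr hg, rfl⟩
  rw [← h]
  exact (Subgroup.card_map_of_injective (cZ w).subtype_injective).symm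

theorem card_stab_inf_down (hab : ∀ x ∈ P, ∀ y ∈ P, x * y = y * x) {w : G} (hw : w ∈ P)
    (hT : stabSub P e ≤ cZ w) (v : cZ w) :
    Nat.card (stabSub (P.subgroupOf (cZ w)) (eDown e hab hw) ⊓ cZ v : Subgroup (cZ w)) =
      Nat.card (stabSub P e ⊓ cZ (v : G) : Subgroup G) := by
  have h : (stabSub (P.subgroupOf (cZ w)) (eDown e hab hw) ⊓ cZ v : Subgroup (cZ w)).map (cZ w).subtype =
      stabSub P e ⊓ cZ (v : G) := by
    ext g
    constructor
    · rintro ⟨x, hx, rfl⟩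
      exact ⟨(mem_stab_down hab hw x).mp hx.1, mem_cZ.mpr ((mem_cZ_sub x v).mp hx.2)⟩
    · rintro ⟨h1, h2⟩
      exact ⟨⟨g, hT h1⟩, ⟨(mem_stab_down hab hw _).mpr h1, (mem_cZ_sub _ v).mpr (mem_cZ.mp h2)⟩, rfl⟩
  rw [← h]
  exact (Subgroup.card_map_of_injective (cZ w).subtype_injective).symm

/-- The two iterated centralizers. -/
noncomputable def swapEquiv {u v : G} (hv : v ∈ cZ u) (hu : u ∈ cZ v) :
    cZ (⟨v, hv⟩ : cZ u) ≃* cZ (⟨u, hu⟩ : cZ v) where
  toFun x := ⟨⟨((x : cZ u) : G), mem_cZ.mpr ((mem_cZ_sub (x : cZ u) ⟨v, hv⟩).mp x.2)⟩,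
    (mem_cZ_sub _ _).mpr (mem_cZ.mp (x : cZ u).2)⟩
  invFun x := ⟨⟨((x : cZ v) : G), mem_cZ.mpr ((mem_cZ_sub (x : cZ v) ⟨u, hu⟩).mp x.2)⟩,
    (mem_cZ_sub _ _).mpr (mem_cZ.mp (x : cZ v).2)⟩
  left_inv x := rfl
  right_inv x := rfl
  map_mul' x y := rfl

variable [Fact p.Prime]

/-- The comparison of the two blocks at `u` and `v`. -/
theorem blockRank_swap (hM : IsPModular p M) (hmax : IsMaximalBrauerPair p M B P e)
    (hab : ∀ x ∈ P, ∀ y ∈ P, x * y = y * x) {u v : G} (hu : u ∈ P) (hv : v ∈ P)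
    {f : Set (IrrCharacter (cZ u))} (hfu : IsUnder p M e u f 1)
    {d : Set (IrrCharacter (cZ v))} (hdv : IsUnder p M e v d 1)
    {f' : Set (IrrCharacter (cZ (⟨u, P_le_cZ hab hv hu⟩ : cZ v)))}
    (hf' : IsUnder p M (eDown e hab hv) (⟨u, P_le_cZ hab hv hu⟩ : cZ v) f' 1)
    {d' : Set (IrrCharacter (cZ (⟨v, P_le_cZ hab hu hv⟩ : cZ u)))}
    (hd' : IsUnder p M (eDown e hab hu) (⟨v, P_le_cZ hab hu hv⟩ : cZ u) d' 1) :
    blockRank p f' = blockRank p d' := by
  classical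
  haveI := isPrime_of_pModular hM
  set uY : cZ v := ⟨u, P_le_cZ hab hv hu⟩ with huY
  set vL : cZ u := ⟨v, P_le_cZ hab hu hv⟩ with hvL
  have hmaxY := isMaximal_down hM hmax hab hv hdv
  have hmaxL := isMaximal_down hM hmax hab hu hfu
  have huY' : uY ∈ P.subgroupOf (cZ v) := Subgroup.mem_subgroupOf.mpr hu
  have hvL' : vL ∈ P.subgroupOf (cZ u) := Subgroup.mem_subgroupOf.mpr hv
  have hnY := isNormalSubpair_of_under hM hmaxY (hab_down hab v) huY' hf'
  have hnL := isNormalSubpair_of_under hM hmaxL (hab_down hab u) hvL' hd'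
  have hiY := (isInducedBlockIn_iff_isNormalSubpair hM hmaxY.1.1.1 ((Subgroup.zpowers_le).mpr huY')
    (P_le_cZ (hab_down hab v) huY')).mpr hnY
  have hiL := (isInducedBlockIn_iff_isNormalSubpair hM hmaxL.1.1.1 ((Subgroup.zpowers_le).mpr hvL')
    (P_le_cZ (hab_down hab u) hvL')).mpr hnL
  let d₁ := descEquiv (map_P hab hu) (C_le_cZ hu)
  let d₂ := descEquiv (map_P hab hv) (C_le_cZ hv)
  have ht := isInducedBlockIn_transport (swapEquiv (P_le_cZ hab hu hv) (P_le_cZ hab hv hu)) (d₁.trans d₂.symm)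
    (C_le_cZ hvL') (fun k => rfl) hiL
  have he : blockMap (d₁.trans d₂.symm) (eDown e hab hu) = eDown e hab hv := by
    change blockMap (d₁.trans d₂.symm) (blockMap d₁.symm e) = blockMap d₂.symm e
    rw [blockMap_blockMap]
    congr 1
  rw [he] at ht
  have h1 := isInducedBlockIn_unique hiY ht
  rw [h1, Cfsg.Agent.Lib.Blocks.ChainBlocks.blockRank_blockMap]

set_option maxHeartbeats 1000000 in
/-- The main step. -/
theorem step (hM : IsPModular p M) (hmax : IsMaximalBrauerPair p M B P e)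
    (hab : ∀ x ∈ P, ∀ y ∈ P, x * y = y * x) {u : G} (hu : u ∈ P)
    (huT : ∀ t ∈ stabSub P e, t * u * t⁻¹ = u)
    {f : Set (IrrCharacter (cZ u))} (hfu : IsUnder p M e u f 1)
    (IH : ∀ v (hv : v ∈ P), ¬ (∀ g : G, Commute g v) →
      blockRank p (bb p M e v) =
        blockRank p (bb p M (eDown e hab hu) (⟨v, P_le_cZ hab hu hv⟩ : cZ u))) :
    blockRank p B = blockRank p f ∧ Nat.card B = Nat.card f := by
  classical
  haveI := isPrime_of_pModular hM
  have hPp : IsPGroup p P := hmax.1.1.1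
  have hPL := P_le_cZ hab hu
  have hTL : stabSub P e ≤ cZ u := fun t ht => by
    rw [mem_cZ]
    change t * u = u * t
    calc t * u = (t * u * t⁻¹) * t := by group
      _ = u * t := by rw [huT t ht]
  have hmaxL := isMaximal_down hM hmax hab hu hfu
  by_cases hcu : ∀ g : G, Commute g u
  · have hK : cZ u = ⊤ := by
      rw [eq_top_iff]
      intro g _
      exact mem_cZ.mpr (hcu g)
    have h1 := of_induced_top (p := p) hK (induced_of_under hM hmax hfu)
    exact ⟨h1.1.symm, h1.2.symm⟩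
  -- notation
  let ι : P → cZ u := fun w => ⟨w, hPL w.2⟩
  let ιP : P.subgroupOf (cZ u) ≃* P := Subgroup.subgroupOfEquivOfLe hPL
  have hιP : ∀ w : P.subgroupOf (cZ u), ι (ιP w) = w := fun w => rfl
  set ρ₁ : P → ℂ := fun w => rho p M e (w : G) with hρ₁
  set ρ₂ : P → ℂ := fun w => rho p M (eDown e hab hu) (ι w) with hρ₂
  have hcomm : ∀ a b : P, a * b = b * a := fun a b => Subtype.ext (hab _ a.2 _ b.2)
  let φ : stabSub P e →* MulAut P := conjAct (stabSub P e) P (fun t ht => ht.1)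
  have hφ : ∀ (t : stabSub P e) (x : P), ((φ t x : P) : G) = (t : G) * x * (t : G)⁻¹ := fun t x => rfl
  let N₀ : Subgroup P := Subgroup.closure {w : P | ∃ (x : P) (t : stabSub P e), w = x⁻¹ * φ t x}
  have hφcard : ¬ p ∣ Nat.card φ.range := by
    have h1 := Cfsg.Agent.Lib.BlockH.CyclicDefect.not_dvd_relIndex_stab hM hmax hab
    have h2 : φ.ker = (Subgroup.centralizer (P : Set G)).subgroupOf (stabSub P e) := by
      ext t
      rw [MonoidHom.mem_ker, Subgroup.mem_subgroupOf, Subgroup.mem_centralizer_iff]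
      constructor
      · intro h x hx
        have h3 := congrArg (fun α : MulAut P => ((α ⟨x, hx⟩ : P) : G)) h
        have h4 : (t : G) * x * (t : G)⁻¹ = x := h3
        calc x * (t : G) = ((t : G) * x * (t : G)⁻¹) * t := by rw [h4]
          _ = (t : G) * x := by group
      · intro h
        ext x
        change (t : G) * x * (t : G)⁻¹ = x
        rw [← h x x.2]
        group
    rw [← Subgroup.index_ker, h2]
    exact h1
  have hfix_eq : ∀ z : P, z ∈ N₀ → (∀ t ∈ stabSub P e, t * (z : G) * t⁻¹ = z) → z = 1 := by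
    intro z hz hf
    exact eq_one_of_fixed_of_mem hcomm hPp φ hφcard hz (fun t => Subtype.ext (hf t t.2))
  have hlamT : ∀ lam : P →* ℂˣ, (∀ n ∈ N₀, lam n = 1) → ∀ n ∈ stabSub P e, ∀ x y : P, n * (x : G) * n⁻¹ = y →
      lam x = lam y := by
    intro lam hlam n hn x y hxy
    have h1 : x⁻¹ * y ∈ N₀ := by
      apply Subgroup.subset_closure
      refine ⟨x, ⟨n, hn⟩, ?_⟩
      congr 1
      exact Subtype.ext hxy.symm
    have h2 := hlam _ h1
    rw [map_mul, map_inv, inv_mul_eq_one] at h2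
    exact h2
  have H1 : ∀ lam : P →* ℂˣ, (∀ n ∈ N₀, lam n = 1) → (∃ a, lam a ≠ 1) → ∑ a, ((lam a : ℂˣ) : ℂ) * ρ₁ a = 0 :=
    fun lam hlam hne => sum_rho_eq_zero hM hmax hab lam (hlamT lam hlam) hne
  have H2 : ∀ lam : P →* ℂˣ, (∀ n ∈ N₀, lam n = 1) → (∃ a, lam a ≠ 1) → ∑ a, ((lam a : ℂˣ) : ℂ) * ρ₂ a = 0 := by
    intro lam hlam hne
    have h1 := sum_rho_eq_zero hM hmaxL (hab_down hab u) (lam.comp ιP.toMonoidHom)
      (fun n hn x y hxy => hlamT lam hlam (n : G) ((mem_stab_down hab hu n).mp hn) _ _ (congrArg Subtype.val hxy))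
      (by
        obtain ⟨a, ha⟩ := hne
        exact ⟨ιP.symm a, by simpa using ha⟩)
    rw [← h1]
    symm
    exact Fintype.sum_equiv ιP.toEquiv _ _ fun w => rfl
  have F1 := fourier_const hcomm N₀ ρ₁ H1
  have F2 := fourier_const hcomm N₀ ρ₂ H2
  -- central elements are fixed
  have hcfix : ∀ a : P, (∀ g : G, Commute g (a : G)) → ∀ t ∈ stabSub P e, t * (a : G) * t⁻¹ = a := by
    intro a ha t _
    rw [(ha t).eq]
    group
  have hρeq : ∀ a : P, ¬ (∀ g : G, Commute g (a : G)) → ρ₁ a = ρ₂ a := by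
    intro a ha
    simp only [hρ₁, hρ₂, rho]
    rw [IH _ a.2 ha, card_stab_down hab hu hTL, card_stab_inf_down hab hu hTL]
  have huP : ∀ t ∈ stabSub P e, t * ((⟨u, hu⟩ : P) : G) * t⁻¹ = (⟨u, hu⟩ : P) := huT
  have h1 := F1 ⟨u, hu⟩ 1
  have h2 := F2 ⟨u, hu⟩ 1
  have h3 : ∑ a, (if (⟨u, hu⟩ : P)⁻¹ * a ∈ N₀ then ρ₁ a else 0) = ∑ a, (if (⟨u, hu⟩ : P)⁻¹ * a ∈ N₀ then ρ₂ a else 0) := by
    refine Finset.sum_congr rfl fun a _ => ?_
    by_cases ha : (⟨u, hu⟩ : P)⁻¹ * a ∈ N₀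
    · rw [if_pos ha, if_pos ha]
      apply hρeq
      intro hc
      have h4 := hfix_eq _ ha (fun t ht => by
        have e1 := huT t ht
        have e2 := hcfix a hc t ht
        change t * (u⁻¹ * a) * t⁻¹ = u⁻¹ * a
        calc t * (u⁻¹ * a) * t⁻¹ = (t * u * t⁻¹)⁻¹ * (t * a * t⁻¹) := by group
          _ = _ := by rw [e1, e2])
      have h5 : a = ⟨u, hu⟩ := (inv_mul_eq_one.mp h4).symm
      apply hcu
      intro g
      have := hc g
      rwa [h5] at this
    · rw [if_neg ha, if_neg ha]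
  have h4 : ∑ a ∈ Finset.univ.erase (1 : P), (if (1 : P)⁻¹ * a ∈ N₀ then ρ₁ a else 0) =
      ∑ a ∈ Finset.univ.erase (1 : P), (if (1 : P)⁻¹ * a ∈ N₀ then ρ₂ a else 0) := by
    refine Finset.sum_congr rfl fun a ha => ?_
    by_cases ha' : (1 : P)⁻¹ * a ∈ N₀
    · rw [if_pos ha', if_pos ha']
      apply hρeq
      intro hc
      have ha2 : a ∈ N₀ := by simpa using ha'
      exact (Finset.mem_erase.mp ha).1 (hfix_eq a ha2 (hcfix a hc))
    · rw [if_neg ha', if_neg ha']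
  have h5 : ∀ ρ : P → ℂ, ∑ a, (if (1 : P)⁻¹ * a ∈ N₀ then ρ a else 0) =
      ρ 1 + ∑ a ∈ Finset.univ.erase (1 : P), (if (1 : P)⁻¹ * a ∈ N₀ then ρ a else 0) := by
    intro ρ
    rw [← Finset.add_sum_erase _ _ (Finset.mem_univ (1 : P)), if_pos (by simp [N₀.one_mem])]
  have h6 : ρ₁ 1 = ρ₂ 1 := by
    have h7 := (h5 ρ₁).symm.trans (h1.symm.trans (h3.trans (h2.trans (h5 ρ₂))))
    rw [h4] at h7
    exact add_right_cancel h7
  have hc₁ : ∀ a : P, (∀ g : G, Commute g (a : G)) → ρ₁ a = (blockRank p B : ℂ) := fun a ha =>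
    rho_of_central hM hmax a.2 ha
  have hc₂ : ∀ a : P, (∀ g : G, Commute g (a : G)) → ρ₂ a = (blockRank p f : ℂ) := fun a ha =>
    rho_of_central hM hmaxL (Subgroup.mem_subgroupOf.mpr a.2) (fun g => Subtype.ext (ha (g : G)))
  have hrank : (blockRank p B : ℂ) = (blockRank p f : ℂ) := by
    rw [← hc₁ 1 (fun g => Commute.one_right g), ← hc₂ 1 (fun g => Commute.one_right g)]
    exact h6
  have hall : ∀ a : P, ρ₁ a = ρ₂ a := by
    intro a
    by_cases ha : ∀ g : G, Commute g (a : G)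
    · rw [hc₁ a ha, hc₂ a ha, hrank]
    · exact hρeq a ha
  refine ⟨by exact_mod_cast hrank, ?_⟩
  have h7 := sum_rho hM hmax hab
  have h8 := sum_rho hM hmaxL (hab_down hab u)
  have h9 : ∑ w : P.subgroupOf (cZ u), rho p M (eDown e hab hu) (w : cZ u) = ∑ a : P, ρ₂ a :=
    Fintype.sum_equiv ιP.toEquiv _ _ fun w => rfl
  have h10 : (Nat.card B : ℂ) = (Nat.card f : ℂ) := by
    rw [← h7, ← h8, h9]
    exact Finset.sum_congr rfl fun a _ => hall a
  exact_mod_cast h10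

/-- **Watanabe's theorem**, in terms of maximal pairs. -/
theorem core_aux : ∀ (n : ℕ) (G : Type u) [Group G] [Fintype G], Nat.card G = n → ∀ (p : ℕ) [Fact p.Prime]
    (M : Ideal AlgInt) (_ : IsPModular p M) (B : Set (IrrCharacter G)) (P : Subgroup G)
    (e : Set (IrrCharacter (Subgroup.centralizer (P : Set G)))) (_ : IsMaximalBrauerPair p M B P e)
    (_ : ∀ x ∈ P, ∀ y ∈ P, x * y = y * x) (u : G) (_ : u ∈ P) (_ : ∀ t ∈ stabSub P e, t * u * t⁻¹ = u)
    (f : Set (IrrCharacter (cZ u))) (_ : IsUnder p M e u f 1),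
    blockRank p B = blockRank p f ∧ Nat.card B = Nat.card f := by
  intro n
  induction n using Nat.strong_induction_on with
  | _ n ih =>
    intro G _ _ hn p _ M hM B P e hmax hab u hu huT f hfu
    apply step hM hmax hab hu huT hfu
    intro v hv hc
    have hlt : Nat.card (cZ v) < n := by
      rw [← hn]
      apply lt_of_le_of_ne (Subgroup.card_le_card_group _)
      intro h0
      apply hc
      intro g
      have h1 : cZ v = ⊤ := Subgroup.eq_top_of_card_eq _ h0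
      exact mem_cZ.mp (h1 ▸ Subgroup.mem_top g)
    obtain ⟨hb1, hb2⟩ := bb_spec hM hmax hv
    have hmaxY := isMaximal_down hM hmax hab hv hb2
    have huY : (⟨u, P_le_cZ hab hv hu⟩ : cZ v) ∈ P.subgroupOf (cZ v) := Subgroup.mem_subgroupOf.mpr hu
    obtain ⟨f', -, hf'2⟩ := exists_under_self hM hmaxY huY
    have huTY : ∀ t ∈ stabSub (P.subgroupOf (cZ v)) (eDown e hab hv),
        t * (⟨u, P_le_cZ hab hv hu⟩ : cZ v) * t⁻¹ = ⟨u, P_le_cZ hab hv hu⟩ := fun t ht =>
      Subtype.ext (huT _ ((mem_stab_down hab hv t).mp ht))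
    have h1 := ih _ hlt (cZ v) rfl p M hM (bb p M e v) (P.subgroupOf (cZ v)) (eDown e hab hv) hmaxY (hab_down hab v)
      ⟨u, P_le_cZ hab hv hu⟩ huY huTY f' hf'2
    have hL := bb_spec hM (isMaximal_down hM hmax hab hu hfu)
      (Subgroup.mem_subgroupOf.mpr hv : (⟨v, P_le_cZ hab hu hv⟩ : cZ u) ∈ P.subgroupOf (cZ u))
    rw [h1.1]
    exact blockRank_swap hM hmax hab hu hv hfu hb2 hf'2 hL.2

/-- **Watanabe's theorem.** -/
theorem watanabe {G : Type u} [Group G] [Finite G] (p : ℕ) [Fact p.Prime] (M : Ideal AlgInt) (hM : IsPModular p M)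
    (B : Set (IrrCharacter G)) (P : Subgroup G) (hPD : IsDefectGroup p M B P)
    (hab : ∀ x ∈ P, ∀ y ∈ P, x * y = y * x) (c : Set (IrrCharacter (Subgroup.centralizer (P : Set G))))
    (hc : IsInducedBlock M (Subgroup.centralizer (P : Set G)) c B) (T : Subgroup G)
    (hT : ∀ g : G, g ∈ T ↔ (g ∈ Subgroup.normalizer (P : Set G) ∧ StabilizesBlock (Subgroup.centralizer (P : Set G)) c g))
    (u : G) (hu : u ∈ P) (huT : ∀ g ∈ T, g * u * g⁻¹ = u) (H : Subgroup G) (hH : H = Subgroup.centralizer ({u} : Set G))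
    (f : Set (IrrCharacter H)) (hf : IsInducedBlockIn M H (Subgroup.centralizer (P : Set G)) c f) :
    blockRank p B = blockRank p f ∧ Nat.card B = Nat.card f := by
  classical
  cases nonempty_fintype G
  have hH' : H = cZ u := hH.trans (cZ_eq u).symm
  subst hH'
  have hmax := Cfsg.Agent.Lib.Dade.Base.isMaximal_of_induced hM hPD hc
  have hQP : Subgroup.zpowers u ≤ P := (Subgroup.zpowers_le).mpr hu
  have hnor := (isInducedBlockIn_iff_isNormalSubpair hM hmax.1.1.1 hQP (P_le_cZ hab hu)).mp hf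
  have hfu : IsUnder p M c u f 1 := isUnder_one_iff.mpr (Relation.ReflTransGen.single hnor)
  exact core_aux _ G rfl p M hM B P c hmax hab u hu (fun t ht => huT t ((hT t).mpr ht)) f hfu

end Cfsg.Agent.Lib.Star.Wat4
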